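import Cfsg.Agent.H736.Co3.D8
import Cfsg.Agent.H748.Co3.Ker8

/-!
# S1920: the interface `D8I` for `E8(q)`, `z` of type `D8` (helper736; kernel by helper748)
-/

set_option autoImplicit false

namespace Cfsg.Agent.H736.Co3

open Matrix Cfsg.Lie Cfsg.Agent.H64.Co3 Cfsg.Agent.LieClassical.OrthForms

universe u

/-- **THETA16**: the action of `C_G(z)`, `G = E8(q)`, on the 16-dimensional space. -/
theorem d8i {F : Type u} [Field F] [Finite F] (ho : Odd (Nat.card F)) (h2 : (2 : F) ≠ 0) :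
    D8I (plusForm T8.m F) (z8 F) (R8 (F := F)) := by
  refine d8i_of ho h2 fun g _ h => ?_
  rcases Cfsg.Agent.H748.Co3.Ker8.ker8_one h2 (z8 F).2 (hz8 h2) g.2 h with h1 | h1
  · exact Or.inl (Subtype.ext h1)
  · exact Or.inr (Subtype.ext h1)

end Cfsg.Agent.H736.Co3
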