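import Cfsg.Agent.H249.Co3.RelRD

/-!
# S1920, case B, `E₇(q)`, THETA12: the torus (helper736)

* `tor7` : the element `∏ h_k(c_k)` of the torus is represented by `a = rx (diagonal ..)`, `M = diagonal ..`, `det a = c_0`.
-/

set_option autoImplicit false
set_option linter.unusedSectionVars false

namespace Cfsg.Agent.H736.Co3

open Cfsg.Lie Cfsg.Agent.ChevalleyStructure Cfsg.Agent.ChevalleyStructure.XColumns Matrix
open Cfsg.Agent.LieClassical Cfsg.Agent.LieClassical.OrthCore Cfsg.Agent.LieClassical.OrthForms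
open Cfsg.Agent.H249.Co3

universe u

section

variable {F : Type u} [Field F]

/-- the diagonal entries -/
def dgf (m n : ℕ) (ex : List (List ℤ)) (c : ℕ → F) (i : Fin m ⊕ Fin m) : F :=
  ∏ k ∈ Finset.range n, c k ^ exf ex k (nx m i)

theorem sm_diag {m : ℕ} [NeZero m] {L : Sp} {d : Fin m ⊕ Fin m → F} {χ : F}
    (h : ∀ a ∈ L, χ * d (ix m a.2.1) = d (ix m a.1)) :
    χ • (sm m F L * Matrix.diagonal d) = Matrix.diagonal d * sm m F L := by
  induction L with
  | nil => simp
  | cons a L ih =>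
    rw [sm_cons, add_mul, smul_add, mul_add, ih fun b hb => h b (List.mem_cons_of_mem _ hb)]
    congr 1
    ext i j
    rw [Matrix.smul_apply, Matrix.mul_diagonal, Matrix.diagonal_mul, Matrix.single_apply, smul_eq_mul]
    split_ifs with h1
    · rw [← h1.1, ← h1.2, ← h a List.mem_cons_self]
      ring
    · ring

theorem tor_mat {T : Tb} [NeZero T.m] {D : ChevalleyDatum} (O : T.Ok D) {ex : List (List ℤ)}
    (dE : ∀ r, T.In r = true → ∀ a ∈ T.E r, ∀ k < D.rank, exf ex k a.1 = D.cartan k r + exf ex k a.2.1)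
    (dH : ∀ i < D.rank, ∀ a ∈ T.H i, a.1 = a.2.1) {t : Matrix D.Idx D.Idx F} {c : ℕ → F}
    (hc : ∀ i < D.rank, c i ≠ 0)
    (ht : t = Matrix.diagonal (Sum.elim (fun _ => (1 : F))
      (fun s : Fin D.nroots => ∏ i ∈ Finset.range D.rank, c i ^ D.cartan i s))) {v : D.Idx → F} (hv : v ∈ Lp T D F) :
    Th T D F (t *ᵥ v) * Matrix.diagonal (dgf T.m D.rank ex c) = Matrix.diagonal (dgf T.m D.rank ex c) * Th T D F v := by
  refine Lp_ind (P := fun v => Th T D F (t *ᵥ v) * Matrix.diagonal (dgf T.m D.rank ex c) =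
    Matrix.diagonal (dgf T.m D.rank ex c) * Th T D F v) ?_ ?_ ?_ ?_ ?_ hv
  · rw [Matrix.mulVec_zero, map_zero, zero_mul, mul_zero]
  · intro v w h1 h2
    rw [Matrix.mulVec_add, map_add, map_add, add_mul, mul_add, h1, h2]
  · intro b v h1
    rw [Matrix.mulVec_smul, map_smul, map_smul, smul_mul_assoc, h1, mul_smul_comm]
  · intro i hi
    rw [diag_hv (χ := fun s => ∏ i ∈ Finset.range D.rank, c i ^ D.cartan i s) ht, Th_hv T D F hi]
    have h1 := sm_diag (m := T.m) (F := F) (L := T.H i) (d := dgf T.m D.rank ex c) (χ := 1)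
      (fun a ha => by rw [one_mul, dH i hi a ha])
    rwa [one_smul] at h1
  · intro s hs hsi
    rw [diag_ev (χ := fun s => ∏ i ∈ Finset.range D.rank, c i ^ D.cartan i s) ht, map_smul, Th_ev T D F hs,
      smul_mul_assoc, smul_mul_assoc, mul_smul_comm, smul_comm]
    congr 1
    refine sm_diag (m := T.m) (F := F) (L := T.E s) (d := dgf T.m D.rank ex c) fun a ha => ?_
    have hw := wf_iff.1 (O.wfE s) a ha
    unfold dgf
    rw [nx_ix hw.1, nx_ix hw.2, ← Finset.prod_mul_distrib]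
    refine Finset.prod_congr rfl fun k hk => ?_
    rw [dE s hsi a ha k (Finset.mem_range.1 hk), zpow_add₀ (hc k (Finset.mem_range.1 hk))]

theorem dgf_ne {m n : ℕ} {ex : List (List ℤ)} {c : ℕ → F} (hc : ∀ i < n, c i ≠ 0) (i : Fin m ⊕ Fin m) : dgf m n ex c i ≠ 0 :=
  Finset.prod_ne_zero_iff.2 fun k hk => zpow_ne_zero _ (hc k (Finset.mem_range.1 hk))

end

section

variable {F : Type u} [Field F]

/-- the matrix on the 2-dimensional space -/
noncomputable def torA (c : ℕ → F) : Matrix (Fin 2) (Fin 2) F :=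
  rx F (Matrix.diagonal (dgf 1 7 ex2 c) : Matrix (Fin 1 ⊕ Fin 1) (Fin 1 ⊕ Fin 1) F)

/-- the matrix on the 12-dimensional space -/
noncomputable def torM (c : ℕ → F) : M12 F := Matrix.diagonal (dgf 6 7 ex6 c)

theorem e2_tab : ((List.range 7).all fun k => decide (exf ex2 k 0 = if k = 0 then 1 else 0) &&
    decide (exf ex2 k 1 = 0)) = true := by decide +kernel

theorem det_torA {c : ℕ → F} : (torA c).det = c 0 := by
  have h1 : (torA c).det = (Matrix.diagonal (dgf 1 7 ex2 c) : Matrix (Fin 1 ⊕ Fin 1) (Fin 1 ⊕ Fin 1) F).det :=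
    Matrix.det_reindexAlgEquiv F F finSumFinEquiv _
  have h2 : ∀ k < 7, exf ex2 k 0 = (if k = 0 then 1 else 0) ∧ exf ex2 k 1 = 0 := by
    intro k hk
    have h3 := List.all_eq_true.1 e2_tab k (List.mem_range.2 hk)
    rw [Bool.and_eq_true, decide_eq_true_eq, decide_eq_true_eq] at h3
    exact h3
  rw [h1, Matrix.det_diagonal, Fintype.prod_sum_type, Fin.prod_univ_one, Fin.prod_univ_one]
  have e1 : dgf 1 7 ex2 c (Sum.inl 0) = c 0 := by
    unfold dgf
    rw [Finset.prod_eq_single 0]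
    · have h4 := (h2 0 (by norm_num)).1
      rw [show nx 1 (Sum.inl (0 : Fin 1)) = 0 from rfl, h4, if_pos rfl, zpow_one]
    · intro k hk hk0
      rw [show nx 1 (Sum.inl (0 : Fin 1)) = 0 from rfl, (h2 k (Finset.mem_range.1 hk)).1, if_neg hk0, zpow_zero]
    · intro h; exact absurd (Finset.mem_range.2 (by norm_num)) h
  have e2 : dgf 1 7 ex2 c (Sum.inr 0) = 1 := by
    unfold dgf
    refine Finset.prod_eq_one fun k hk => ?_
    rw [show nx 1 (Sum.inr (0 : Fin 1)) = 1 from rfl, (h2 k (Finset.mem_range.1 hk)).2, zpow_zero]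
  rw [e1, e2, mul_one]

theorem mu_torM {c : ℕ → F} (hc : ∀ i < 7, c i ≠ 0) (i : Fin 6) :
    dgf 6 7 ex6 c (Sum.inl i) * dgf 6 7 ex6 c (Sum.inr i) = c 0 * (c 6 ^ (-1 : ℤ)) ^ 2 := by
  have h1 : ∀ k < 7, exf ex6 k (nx 6 (Sum.inl i)) + exf ex6 k (nx 6 (Sum.inr i)) =
      if k = 0 then 1 else if k = 6 then -2 else 0 := by
    intro k hk
    have h3 := List.all_eq_true.1 c6_8 k (List.mem_range.2 hk)
    rw [decide_eq_true_eq] at h3
    rw [← h3]
    exact T6_ok2.mu k hk i i.2
  unfold dgf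
  rw [← Finset.prod_mul_distrib]
  have h2 : ∀ k ∈ Finset.range 7, c k ^ exf ex6 k (nx 6 (Sum.inl i)) * c k ^ exf ex6 k (nx 6 (Sum.inr i)) =
      c k ^ (if k = 0 then (1 : ℤ) else if k = 6 then -2 else 0) := by
    intro k hk
    rw [← zpow_add₀ (hc k (Finset.mem_range.1 hk)), h1 k (Finset.mem_range.1 hk)]
  rw [Finset.prod_congr rfl h2]
  simp only [Finset.prod_range_succ, Finset.prod_range_zero]
  norm_num

/-- **the elements of the torus are represented** -/
theorem tor7r {z t : ↥(chevE7.group F)} {c : ℕ → F} (hc : ∀ i < 7, c i ≠ 0)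
    (ht : ((t : GL chevE7.Idx F) : Matrix chevE7.Idx chevE7.Idx F) = Matrix.diagonal (Sum.elim (fun _ => (1 : F))
      (fun s : Fin chevE7.nroots => ∏ i ∈ Finset.range chevE7.rank, c i ^ chevE7.cartan i s))) (htz : t * z = z * t) :
    Rl7 z t (torA c) (torM c) where
  cz := htz
  det := by
    rw [det_torA]
    exact hc 0 (by norm_num)
  sim := by
    have h6 : c 6 ≠ 0 := hc 6 (by norm_num)
    refine ⟨c 0 * (c 6 ^ (-1 : ℤ)) ^ 2, mul_ne_zero (hc 0 (by norm_num)) (pow_ne_zero _ (zpow_ne_zero _ h6)), fun v => ?_,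
      c 0 * c 6 ^ (-1 : ℤ), ?_⟩
    · rw [coe_plusForm, quadFormPlus_apply, quadFormPlus_apply, Finset.mul_sum]
      refine Finset.sum_congr rfl fun i _ => ?_
      rw [← mu_torM hc i, torM, Matrix.mulVec_diagonal, Matrix.mulVec_diagonal]
      ring
    · rw [det_torA]
      ring
  d2 := by
    intro v hv
    have h1 := tor_mat (F := F) T2_ok (ex := ex2) (fun r hr a ha k hk => by
        obtain ⟨p, hp, rfl, e⟩ := spec2 hr
        rw [e] at ha
        exact of_decide_eq_true (List.all_eq_true.1 (List.all_eq_true.1 (List.all_eq_true.1 c2_1 p hp) a ha) k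
          (List.mem_range.2 hk)))
      (fun i hi a ha => Nat.eq_of_beq_eq_true (List.all_eq_true.1 (List.all_eq_true.1 c2_2 i (List.mem_range.2 hi)) a ha))
      (c := c) hc ht (v := v) hv
    have h2 := congrArg (rx F) h1
    exact (map_mul (rx F) _ _).symm.trans (h2.trans (map_mul (rx F) _ _))
  d6 := fun v hv => tor_mat (F := F) T6_ok T6_ok2.dE T6_ok2.dH (c := c) hc ht hv

/-- the elements of the torus are represented, existential form -/
theorem tor7 (_h2 : (2 : F) ≠ 0) {z t : ↥(chevE7.group F)} (_hz : Z7 z) {c : ℕ → F} (hc : ∀ i < 7, c i ≠ 0)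
    (ht : ((t : GL chevE7.Idx F) : Matrix chevE7.Idx chevE7.Idx F) = Matrix.diagonal (Sum.elim (fun _ => (1 : F))
      (fun s : Fin chevE7.nroots => ∏ i ∈ Finset.range chevE7.rank, c i ^ chevE7.cartan i s))) (htz : t * z = z * t) :
    ∃ a M, Rl7 z t a M ∧ a.det = c 0 :=
  ⟨_, _, tor7r hc ht htz, det_torA⟩

end

end Cfsg.Agent.H736.Co3
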